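import Cfsg.Agent.CosetEnum.Norm

/-!
More criteria for simplicity: semiregular normal subgroups, point stabilisers of prime index (owner: helper28).
-/

set_option autoImplicit false

namespace Cfsg.Agent.CosetEnum

open MulAction
open scoped commutatorElement

section

variable {G : Type} [Group G] {g : ℕ → G} {ng k : ℕ} {l : List (ℕ × ℕ)} {P : Par} {lets bs : List ℕ}

/-- no semiregular normal subgroup, by its order and the subdegrees -/
theorem no_semireg (hpos : 1 < P.m) [A : MulAction G (Fin P.m)] {letsk cw : List ℕ} (h2 : subB k l letsk = true)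
    (hinv : ∀ x, g (ivL l x) = (g x)⁻¹)
    (h3k : Acts G P g letsk) (h5 : Orbs P letsk cw (1 :: bs)) (h6 : lastD 1 bs = P.m)
    (h7 : stabilizer G (⟨0, by omega⟩ : Fin P.m) = Cl g k)
    (N : Subgroup G) (hN : N.Normal) (hr : NoReg (Nat.card N) (gaps (1 :: bs)))
    (hreg : ∀ n ∈ N, n • (⟨0, by omega⟩ : Fin P.m) = ⟨0, by omega⟩ → n = 1) : False := by
  refine hr N rfl ?_ ?_
  · intro T hT h1T
    have h8 : ∀ h ∈ stabilizer G (⟨0, by omega⟩ : Fin P.m), ∀ t ∈ (fun n : N => (n : G)) '' T,
        h * t * h⁻¹ ∈ (fun n : N => (n : G)) '' T := by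
      rintro h _ _ ⟨t, ht, rfl⟩
      refine ⟨MulAut.conjNormal h t, hT _ t ht, ?_⟩
      simp [MulAut.conjNormal_apply]
    have h9 := image_invariant _ h8 (le_refl _)
    rw [h7, ← subB_ClL h2] at h9
    have h10 := ncard_mem_sums h3k (subB_inv hinv h2) h5 h6 h9
    have h11 : (fun n : G => n • (⟨0, by omega⟩ : Fin P.m)) '' ((fun n : N => (n : G)) '' T) ∩
        {i : Fin P.m | 1 ≤ (i : ℕ)} = (fun n : G => n • (⟨0, by omega⟩ : Fin P.m)) '' ((fun n : N => (n : G)) '' T) := by
      rw [Set.inter_eq_left]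
      rintro _ ⟨_, ⟨t, ht, rfl⟩, rfl⟩
      show 1 ≤ (((t : G) • (⟨0, by omega⟩ : Fin P.m) : Fin P.m) : ℕ)
      by_contra h12
      apply h1T
      have h13 : (t : G) • (⟨0, by omega⟩ : Fin P.m) = ⟨0, by omega⟩ := Fin.ext (by
        show _ = 0
        omega)
      have h14 : t = 1 := Subtype.ext (hreg t t.2 h13)
      rwa [h14] at ht
    rw [h11, image_ncard (N := N) _ hreg (by rintro _ ⟨t, _, rfl⟩; exact t.2),
      Set.InjOn.ncard_image (Subtype.val_injective.injOn)] at h10
    exact h10
  · refine ⟨fun n => ivIdx (1 :: bs) ((((n : G) • (⟨0, by omega⟩ : Fin P.m) : Fin P.m) : ℕ)), ?_, ?_⟩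
    · intro x hx
      apply ivIdx_lt
      · by_contra h12
        apply hx
        have h13 : (x : G) • (⟨0, by omega⟩ : Fin P.m) = ⟨0, by omega⟩ := Fin.ext (by
          show _ = 0
          omega)
        exact Subtype.ext (hreg x x.2 h13)
      · rw [h6]
        exact Fin.is_lt _
    · intro x y hx hy hxy
      have hx1 : 1 ≤ (((x : G) • (⟨0, by omega⟩ : Fin P.m) : Fin P.m) : ℕ) := by
        by_contra h12
        apply hx
        have h13 : (x : G) • (⟨0, by omega⟩ : Fin P.m) = ⟨0, by omega⟩ := Fin.ext (by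
          show _ = 0
          omega)
        exact Subtype.ext (hreg x x.2 h13)
      have hy1 : 1 ≤ (((y : G) • (⟨0, by omega⟩ : Fin P.m) : Fin P.m) : ℕ) := by
        by_contra h12
        apply hy
        have h13 : (y : G) • (⟨0, by omega⟩ : Fin P.m) = ⟨0, by omega⟩ := Fin.ext (by
          show _ = 0
          omega)
        exact Subtype.ext (hreg y y.2 h13)
      obtain ⟨h, hh, hxy'⟩ := same_orbit h3k (subB_inv hinv h2) h5 h6 hx1 hy1 hxy
      rw [subB_ClL h2, ← h7] at hh
      have h14 : h⁻¹ • (⟨0, by omega⟩ : Fin P.m) = ⟨0, by omega⟩ := by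
        rw [inv_smul_eq_iff]
        exact (show h • (⟨0, by omega⟩ : Fin P.m) = ⟨0, by omega⟩ from hh).symm
      have h15 : ((y : G)⁻¹ * (h * x * h⁻¹)) • (⟨0, by omega⟩ : Fin P.m) = ⟨0, by omega⟩ := by
        rw [mul_smul, mul_smul, mul_smul, h14, hxy', inv_smul_smul]
      have h16 := hreg _ (N.mul_mem (N.inv_mem y.2) (hN.conj_mem x x.2 h)) h15
      rw [inv_mul_eq_one] at h16
      rw [← Subgroup.orderOf_coe x, ← Subgroup.orderOf_coe y, h16]
      exact SemiconjBy.orderOf_eq h (show h * (x : G) = h * x * h⁻¹ * h by group)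

/-- order of a normal subgroup that meets `K` trivially -/
theorem card_dvd_index {G : Type*} [Group G] [Finite G] (K N : Subgroup G) (hN : N.Normal) (h : N ⊓ K = ⊥) :
    Nat.card N ∣ K.index := by
  have h1 : Nat.card (N ⊔ K : Subgroup G) = Nat.card K * Nat.card N := by
    have h2 := Subgroup.relIndex_mul_relIndex (⊥ : Subgroup G) N (K ⊔ N) bot_le le_sup_right
    rw [Subgroup.relIndex_bot_left, Subgroup.relIndex_bot_left, Subgroup.relIndex_sup_right] at h2
    have h3 : (N.subgroupOf K) = ⊥ := by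
      rw [Subgroup.subgroupOf_eq_bot, disjoint_iff]
      exact h
    rw [Subgroup.relIndex, h3, Subgroup.index_bot] at h2
    rw [sup_comm, ← h2, mul_comm]
  have h2 := Subgroup.card_subgroup_dvd_card (N ⊔ K : Subgroup G)
  rw [h1, ← K.card_mul_index] at h2
  exact Nat.dvd_of_mul_dvd_mul_left Nat.card_pos h2

/-- **Simplicity from a simple point stabiliser that generates the group as a normal subgroup.** -/
theorem Lvl.simple_semi (L : Lvl g ng l lets P k bs) (hinv : ∀ x, g (ivL l x) = (g x)⁻¹) (hfin : Finite (Cl g k))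
    (hs : IsSimpleGroup (Cl g k)) (hcol : ∀ N : Subgroup G, N.Normal → Cl g k ≤ N → N = ⊤)
    (hr : ∀ d, d ∣ P.m → d ≠ 1 → NoReg d (gaps (1 :: bs))) : IsSimpleGroup G := by
  have hpos := L.pos
  have hfG := L.finite hfin
  obtain ⟨A, letsk, cw, h1, h2, h3, h3k, h4, h5, h6, h7⟩ := L.ex
  have hnt : Nontrivial G := by
    obtain ⟨x, hx⟩ := exists_ne (1 : Cl g k)
    exact ⟨⟨x, 1, fun h => hx (Subtype.ext h)⟩⟩
  refine ⟨fun N hN => ?_⟩
  have h8 : (N.subgroupOf (Cl g k)).Normal := inferInstance
  rcases h8.eq_bot_or_eq_top with h | h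
  · left
    by_contra hb
    have h9 : N ⊓ Cl g k = ⊥ := by
      rw [Subgroup.subgroupOf_eq_bot, disjoint_iff] at h
      exact h
    have h10 := card_dvd_index (Cl g k) N hN h9
    rw [L.index] at h10
    have h11 : Nat.card N ≠ 1 := by
      intro h12
      exact hb (Subgroup.card_eq_one.1 h12)
    refine no_semireg hpos h2 hinv h3k h5 h6 h7 N hN (hr _ h10 h11) ?_
    intro n hn hx
    have h12 : n ∈ N ⊓ Cl g k := ⟨hn, by rw [← h7]; exact hx⟩
    rwa [h9, Subgroup.mem_bot] at h12
  · right
    exact hcol N hN (Subgroup.subgroupOf_eq_top.1 h)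

/-- the number of nonidentity elements is not a sum of subdegrees -/
theorem noReg_sums {m : ℕ} {gs : List ℕ} (hm : m ≠ 0) (h : m - 1 ∉ sums gs) : NoReg m gs := by
  rintro N _ hN hT _
  have : Finite N := Nat.finite_of_card_ne_zero (by rw [hN]; exact hm)
  apply h
  have h1 := hT ({x : N | x ≠ 1}) (fun e t ht => by
    intro h2
    exact ht (by simpa using h2)) (by simp)
  have h2 : ({x : N | x ≠ 1} : Set N).ncard = m - 1 := by
    have h3 : ({x : N | x ≠ 1} : Set N) = Set.univ \ {1} := by
      ext x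
      simp
    rw [h3, Set.ncard_sdiff_singleton_of_mem (Set.mem_univ _), Set.ncard_univ, hN]
  rwa [h2] at h1

end

/-- A perfect group with a simple subgroup of prime index is simple. -/
theorem simple_of_prime_index {G : Type*} [Group G] [Finite G] (hperf : commutator G = ⊤) (K : Subgroup G)
    (hK : IsSimpleGroup K) (hp : K.index.Prime) : IsSimpleGroup G := by
  have hKn : ¬ K.Normal := by
    intro hn
    have h1 : IsCyclic (G ⧸ K) := isCyclic_of_prime_card (p := K.index) (hp := ⟨hp⟩) rfl
    have h2 : IsMulCommutative (G ⧸ K) := IsCyclic.isMulCommutative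
    have h3 : commutator G ≤ K := by
      rw [commutator_eq_closure, Subgroup.closure_le]
      rintro _ ⟨x, y, rfl⟩
      rw [SetLike.mem_coe, ← QuotientGroup.eq_one_iff]
      show (QuotientGroup.mk' K) ⁅x, y⁆ = 1
      rw [map_commutatorElement, commutatorElement_eq_one_iff_mul_comm]
      exact h2.is_comm.comm _ _
    rw [hperf, top_le_iff] at h3
    rw [h3, Subgroup.index_top] at hp
    exact Nat.not_prime_one hp
  have hnt : Nontrivial G := by
    obtain ⟨x, hx⟩ := exists_ne (1 : K)
    exact ⟨⟨x, 1, fun h => hx (Subtype.ext h)⟩⟩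
  have hmax : ∀ M : Subgroup G, K ≤ M → M = K ∨ M = ⊤ := by
    intro M hM
    have h1 := Subgroup.relIndex_mul_index hM
    have h2 : M.index ∣ K.index := ⟨_, by rw [← h1, mul_comm]⟩
    rcases (Nat.dvd_prime hp).1 h2 with h3 | h3
    · right
      exact Subgroup.index_eq_one.1 h3
    · left
      rw [h3] at h1
      have h4 : K.relIndex M = 1 := by
        have h5 := hp.pos
        exact Nat.eq_of_mul_eq_mul_right h5 (by rw [h1, one_mul])
      exact le_antisymm (Subgroup.relIndex_eq_one.1 h4) hM
  refine ⟨fun N hN => ?_⟩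
  have h8 : (N.subgroupOf K).Normal := inferInstance
  rcases h8.eq_bot_or_eq_top with h | h
  · left
    by_contra hb
    have h9 : N ⊓ K = ⊥ := by
      rw [Subgroup.subgroupOf_eq_bot, disjoint_iff] at h
      exact h
    have h10 := card_dvd_index K N hN h9
    have h11 : Nat.card N = K.index := by
      rcases (Nat.dvd_prime hp).1 h10 with h12 | h12
      · exact absurd (Subgroup.card_eq_one.1 h12) hb
      · exact h12
    have h12 : IsCyclic N := isCyclic_of_prime_card (p := K.index) (hp := ⟨hp⟩) h11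
    have h13 : IsMulCommutative N := IsCyclic.isMulCommutative
    -- `N` is central
    have h14 : ∀ x y : G, ∀ n : N, MulAut.conjNormal x (MulAut.conjNormal y n) = MulAut.conjNormal y (MulAut.conjNormal x n) := by
      intro x y n
      obtain ⟨c, hc⟩ := h12.exists_generator
      have h15 : ∀ x : G, ∃ m : ℤ, MulAut.conjNormal x c = c ^ m := by
        intro x
        obtain ⟨m, hm⟩ := hc (MulAut.conjNormal x c)
        exact ⟨m, hm.symm⟩
      have h16 : ∀ (x : G) (m : ℤ), MulAut.conjNormal x c = c ^ m → ∀ n : N, MulAut.conjNormal x n = n ^ m := by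
        intro x m hm n
        obtain ⟨j, rfl⟩ := hc n
        show MulAut.conjNormal x (c ^ j) = (c ^ j) ^ m
        rw [map_zpow, hm, ← zpow_mul, ← zpow_mul, mul_comm]
      obtain ⟨a, ha⟩ := h15 x
      obtain ⟨b, hb⟩ := h15 y
      rw [h16 x a ha, h16 y b hb, h16 x a ha, h16 y b hb, ← zpow_mul, ← zpow_mul, mul_comm]
    have h15 : commutator G ≤ (MulAut.conjNormal (H := N)).ker := by
      rw [commutator_eq_closure, Subgroup.closure_le]
      rintro _ ⟨x, y, rfl⟩
      rw [SetLike.mem_coe, MonoidHom.mem_ker, map_commutatorElement, commutatorElement_eq_one_iff_mul_comm]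
      ext n
      exact congrArg Subtype.val (h14 x y n)
    rw [hperf, top_le_iff] at h15
    have h16 : ∀ (x : G), ∀ n ∈ N, x * n * x⁻¹ = n := by
      intro x n hn
      have h17 : x ∈ (MulAut.conjNormal (H := N)).ker := by rw [h15]; exact Subgroup.mem_top _
      rw [MonoidHom.mem_ker] at h17
      have h18 := congrArg (fun e : MulAut N => ((e ⟨n, hn⟩ : N) : G)) h17
      simpa using h18
    have h17 : K ⊔ N = ⊤ := by
      rcases hmax (K ⊔ N) le_sup_left with h18 | h18
      · exfalso
        have h19 : N ≤ K := by rw [← h18]; exact le_sup_right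
        rw [inf_eq_left.2 h19] at h9
        exact hb h9
      · exact h18
    apply hKn
    rw [← Subgroup.normalizer_eq_top_iff, eq_top_iff, ← h17, sup_le_iff]
    refine ⟨Subgroup.le_normalizer, ?_⟩
    intro n hn
    rw [Subgroup.mem_normalizer_iff]
    intro k
    have h18 : n * k * n⁻¹ = k := by
      have h19 := h16 k n hn
      rw [mul_inv_eq_iff_eq_mul] at h19 ⊢
      exact h19.symm
    rw [h18]
  · right
    rcases hmax N (Subgroup.subgroupOf_eq_top.1 h) with h9 | h9
    · rw [h9] at hN
      exact absurd hN hKn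
    · exact h9

end Cfsg.Agent.CosetEnum
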